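import Cfsg.Agent.H576.E8L.PN

/-!
# S5925: base change of `sigma = 0` (helper576)
-/

set_option autoImplicit false
set_option linter.unusedSectionVars false
set_option linter.unusedVariables false
set_option linter.style.longLine false
set_option linter.unusedSimpArgs false

namespace Cfsg.Agent.H576.E8L

open Matrix Cfsg Cfsg.Lie Cfsg.Agent.ChevalleyStructure Cfsg.Agent.ChevalleyStructure.Elts
open Cfsg.Agent.H992.E8X Cfsg.Agent.H238.E8
open Cfsg.Agent.H879.E83
open Cfsg.Agent.GpExc.Field (emb emb_injective glMap coe_emb coe_glMap)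

/-! ## linear descent -/

section descent
variable {k K : Type*} [Field k] [Field K] (f : k →+* K)

/-- a linear implication with coefficients in the subfield extends to the field -/
theorem ker_base {n m₁ m₂ m' : Type*} [Fintype n] (A₁ : Matrix m₁ n k) (A₂ : Matrix m₂ n k) (B : Matrix m' n k)
    (h : ∀ v : n → k, A₁ *ᵥ v = 0 → A₂ *ᵥ v = 0 → B *ᵥ v = 0) (v : n → K) (h1 : A₁.map f *ᵥ v = 0)
    (h2 : A₂.map f *ᵥ v = 0) : B.map f *ᵥ v = 0 := by
  let _ : Algebra k K := f.toAlgebra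
  let b := Module.Basis.ofVectorSpace k K
  have key : ∀ (c : n → k) (α), b.repr (∑ j, f (c j) * v j) α = ∑ j, c j * b.repr (v j) α := by
    intro c α
    have e : ∑ j, f (c j) * v j = ∑ j, c j • v j := by
      refine Finset.sum_congr rfl fun j _ => ?_
      rw [Algebra.smul_def]
      rfl
    rw [e, map_sum, Finsupp.finsetSum_apply]
    refine Finset.sum_congr rfl fun j _ => ?_
    rw [map_smul, Finsupp.smul_apply, smul_eq_mul]
  funext i
  apply b.repr.injective
  apply Finsupp.ext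
  intro α
  have h3 := h (fun j => b.repr (v j) α)
    (by
      funext i
      have e : ∑ j, f (A₁ i j) * v j = 0 := congrFun h1 i
      show ∑ j, A₁ i j * b.repr (v j) α = 0
      rw [← key, e]; simp)
    (by
      funext i
      have e : ∑ j, f (A₂ i j) * v j = 0 := congrFun h2 i
      show ∑ j, A₂ i j * b.repr (v j) α = 0
      rw [← key, e]; simp)
  have h4 : ∑ j, B i j * b.repr (v j) α = 0 := congrFun h3 i
  show b.repr (∑ j, f (B i j) * v j) α = _
  rw [key, h4]
  simp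

end descent

section base
variable {K : Type} [Field K] (f : ZMod 3 →+* K)

theorem emb_val (x : ↥(chevE8.group (ZMod 3))) :
    (((emb hE8 f x : ↥(chevE8.group K)) : GL chevE8.Idx K) : Matrix chevE8.Idx chevE8.Idx K) =
      (((x : ↥(chevE8.group (ZMod 3))) : GL chevE8.Idx (ZMod 3)) : Matrix chevE8.Idx chevE8.Idx (ZMod 3)).map f := by
  rw [coe_emb, coe_glMap]

theorem map_sub_one (M : Matrix chevE8.Idx chevE8.Idx (ZMod 3)) : (M - 1).map f = M.map f - 1 := by
  ext a b
  simp only [Matrix.map_apply, Matrix.sub_apply, map_sub, Matrix.one_apply]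
  split_ifs <;> simp

theorem map_sig (M T : Matrix chevE8.Idx chevE8.Idx (ZMod 3)) (n : ℕ) :
    (1 + (∑ i ∈ Finset.range n, M ^ i) * T).map f = 1 + (∑ i ∈ Finset.range n, (M.map f) ^ i) * T.map f := by
  have h := map_add f.mapMatrix (1 : Matrix chevE8.Idx chevE8.Idx (ZMod 3)) ((∑ i ∈ Finset.range n, M ^ i) * T)
  rw [map_one, map_mul, map_sum] at h
  simp only [map_pow] at h
  exact h

/-- `sigma = 0` over `K` -/
theorem sig_K {x y t : ↥(chevE8.group (ZMod 3))}
    (hs : ∀ v : chevE8.Idx → ZMod 3, ((x : GL chevE8.Idx (ZMod 3)) : Matrix chevE8.Idx chevE8.Idx (ZMod 3)) *ᵥ v = v →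
      ((y : GL chevE8.Idx (ZMod 3)) : Matrix chevE8.Idx chevE8.Idx (ZMod 3)) *ᵥ v = v →
      v + ∑ i ∈ Finset.range 11, (((x ^ i : ↥(chevE8.group (ZMod 3))) : GL chevE8.Idx (ZMod 3)) :
        Matrix chevE8.Idx chevE8.Idx (ZMod 3)) *ᵥ (((t : GL chevE8.Idx (ZMod 3)) : Matrix chevE8.Idx chevE8.Idx (ZMod 3)) *ᵥ v) = 0)
    (v : chevE8.Idx → K) (hx : En (emb hE8 f x) v = v) (hy : En (emb hE8 f y) v = v) :
    v + sX (En (emb hE8 f x)) (En (emb hE8 f t) v) = 0 := by
  set Mx : Matrix chevE8.Idx chevE8.Idx (ZMod 3) := ((x : GL chevE8.Idx (ZMod 3)) : Matrix chevE8.Idx chevE8.Idx (ZMod 3)) with hMx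
  set My : Matrix chevE8.Idx chevE8.Idx (ZMod 3) := ((y : GL chevE8.Idx (ZMod 3)) : Matrix chevE8.Idx chevE8.Idx (ZMod 3)) with hMy
  set Mt' : Matrix chevE8.Idx chevE8.Idx (ZMod 3) := ((t : GL chevE8.Idx (ZMod 3)) : Matrix chevE8.Idx chevE8.Idx (ZMod 3)) with hMt
  have hpow : ∀ i : ℕ, (((x ^ i : ↥(chevE8.group (ZMod 3))) : GL chevE8.Idx (ZMod 3)) :
      Matrix chevE8.Idx chevE8.Idx (ZMod 3)) = Mx ^ i := by
    intro i
    rw [Subgroup.coe_pow, Units.val_pow_eq_pow_val]
  have h := ker_base f (Mx - 1) (My - 1) (1 + (∑ i ∈ Finset.range 11, Mx ^ i) * Mt') (fun w h1 h2 => by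
    rw [Matrix.sub_mulVec, Matrix.one_mulVec, sub_eq_zero] at h1 h2
    have h3 := hs w h1 h2
    simp only [hpow] at h3
    rw [Matrix.add_mulVec, Matrix.one_mulVec, ← Matrix.mulVec_mulVec, Matrix.sum_mulVec]
    exact h3) v
    (by
      rw [map_sub_one, Matrix.sub_mulVec, Matrix.one_mulVec, sub_eq_zero, ← emb_val]
      exact hx)
    (by
      rw [map_sub_one, Matrix.sub_mulVec, Matrix.one_mulVec, sub_eq_zero, ← emb_val]
      exact hy)
  rw [map_sig, Matrix.add_mulVec, Matrix.one_mulVec, ← Matrix.mulVec_mulVec, ← emb_val, ← emb_val] at h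
  have e : sX (En (emb hE8 f x)) (En (emb hE8 f t) v) =
      (∑ i ∈ Finset.range 11, (((emb hE8 f x : ↥(chevE8.group K)) : GL chevE8.Idx K) : Matrix chevE8.Idx chevE8.Idx K) ^ i) *ᵥ
        ((((emb hE8 f t : ↥(chevE8.group K)) : GL chevE8.Idx K) : Matrix chevE8.Idx chevE8.Idx K) *ᵥ v) := by
    have e1 : sX (En (emb hE8 f x)) = ∑ i ∈ Finset.range 11, En (emb hE8 f x) ^ i := by
      simp only [sX, Finset.sum_range_succ, Finset.sum_range_zero, zero_add, pow_zero, pow_one]
    rw [e1, Matrix.sum_mulVec, LinearMap.sum_apply]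
    refine Finset.sum_congr rfl fun i _ => ?_
    rw [← map_pow, En_apply, En_apply, Subgroup.coe_pow, Units.val_pow_eq_pow_val]
  rw [e]
  exact h

/-- conjugated form: literally `hsum` of `pnine` -/
theorem hsum_up {x y t : ↥(chevE8.group (ZMod 3))}
    (hs : ∀ v : chevE8.Idx → ZMod 3, ((x : GL chevE8.Idx (ZMod 3)) : Matrix chevE8.Idx chevE8.Idx (ZMod 3)) *ᵥ v = v →
      ((y : GL chevE8.Idx (ZMod 3)) : Matrix chevE8.Idx chevE8.Idx (ZMod 3)) *ᵥ v = v →
      v + ∑ i ∈ Finset.range 11, (((x ^ i : ↥(chevE8.group (ZMod 3))) : GL chevE8.Idx (ZMod 3)) :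
        Matrix chevE8.Idx chevE8.Idx (ZMod 3)) *ᵥ (((t : GL chevE8.Idx (ZMod 3)) : Matrix chevE8.Idx chevE8.Idx (ZMod 3)) *ᵥ v) = 0)
    (z : ↥(chevE8.group K)) (v : chevE8.Idx → K) (hx : En (z⁻¹ * emb hE8 f x * z) v = v)
    (hy : En (z⁻¹ * emb hE8 f y * z) v = v) :
    v + sX (En (z⁻¹ * emb hE8 f x * z)) (En (z⁻¹ * emb hE8 f t * z) v) = 0 := by
  have hz : ∀ w, En z (En z⁻¹ w) = w := by
    intro w
    rw [← Module.End.mul_apply, ← map_mul, mul_inv_cancel, map_one, Module.End.one_apply]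
  have hz' : ∀ w, En z⁻¹ (En z w) = w := by
    intro w
    rw [← Module.End.mul_apply, ← map_mul, inv_mul_cancel, map_one, Module.End.one_apply]
  have hc : ∀ a w, En (z⁻¹ * a * z) w = En z⁻¹ (En a (En z w)) := by
    intro a w
    rw [map_mul, map_mul, Module.End.mul_apply, Module.End.mul_apply]
  rw [hc] at hx hy
  have hx' : En (emb hE8 f x) (En z v) = En z v := by
    have := congrArg (En z) hx
    rwa [hz] at this
  have hy' : En (emb hE8 f y) (En z v) = En z v := by
    have := congrArg (En z) hy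
    rwa [hz] at this
  have h := sig_K f hs (En z v) hx' hy'
  have h2 := congrArg (En z⁻¹) h
  rw [map_add, map_zero, hz'] at h2
  have e : sX (En (z⁻¹ * emb hE8 f x * z)) (En (z⁻¹ * emb hE8 f t * z) v) =
      En z⁻¹ (sX (En (emb hE8 f x)) (En (emb hE8 f t) (En z v))) := by
    have e1 : ∀ X : Module.End K (chevE8.Idx → K), sX X = ∑ i ∈ Finset.range 11, X ^ i := by
      intro X
      simp only [sX, Finset.sum_range_succ, Finset.sum_range_zero, zero_add, pow_zero, pow_one]
    rw [e1, e1, LinearMap.sum_apply, LinearMap.sum_apply, map_sum]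
    refine Finset.sum_congr rfl fun i _ => ?_
    have e2 : (z⁻¹ * emb hE8 f x * z) ^ i = z⁻¹ * (emb hE8 f x) ^ i * z := by
      have := conj_pow (i := i) (a := z⁻¹) (b := emb hE8 f x)
      rw [inv_inv] at this
      exact this
    rw [← map_pow, e2, hc, hc, hz, map_pow]
  rw [e]
  exact h2

end base

end Cfsg.Agent.H576.E8L
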