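import Cfsg.Agent.H576.E8L.Base

/-!
# S5925: from the action on the image of `iota` back to `F₃` (helper576)
-/

set_option autoImplicit false
set_option linter.unusedSectionVars false
set_option linter.unusedVariables false
set_option linter.style.longLine false
set_option linter.unusedSimpArgs false

namespace Cfsg.Agent.H576.E8L

open Matrix Cfsg Cfsg.Lie Cfsg.Agent.ChevalleyStructure Cfsg.Agent.ChevalleyStructure.Elts
open Cfsg.Agent.H992.E8X Cfsg.Agent.H238.E8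
open Cfsg.Agent.H879.E83
open Cfsg.Agent.GpExc.Field (emb emb_injective glMap coe_emb coe_glMap)

section
variable {K : Type} [Field K] [CharP K 3]

/-- conjugation by `diag (g ^ r)` is bijective -/
theorem cj_surj (r : Fin 5 → ℕ) {g : K} (hg : g ≠ 0) (B : Mt K) : ∃ A : Mt K, cj r g A = B := by
  refine ⟨Matrix.of fun a b => (g ^ r a)⁻¹ * B a b * g ^ r b, ?_⟩
  ext a b
  rw [cj_apply, Matrix.of_apply]
  have n1 := pow_ne_zero (r a) hg
  have n2 := pow_ne_zero (r b) hg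
  field_simp

theorem supp_iota_surj {g : K} (hg : g ≠ 0) {v : chevE8.Idx → K} (hv : Supp v) :
    ∃ A0 A1 : Mt K, A0.trace = 0 ∧ A1.trace = 0 ∧ iota g (A0, A1) = v := by
  obtain ⟨B0, B1, t0, t1, h⟩ := io_surj hv
  obtain ⟨A0, h0⟩ := cj_surj re0 hg B0
  obtain ⟨A1, h1⟩ := cj_surj re1 hg B1
  refine ⟨A0, A1, ?_, ?_, ?_⟩
  · rw [← cj_trace re0 hg A0, h0, t0]
  · rw [← cj_trace re1 hg A1, h1, t1]
  · rw [iota_apply, h0, h1, h]

/-- the fixed space of `h` is the image of `iota` -/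
theorem fix_iota {g : K} (hg : g ^ 4 = 1 - g) {v : chevE8.Idx → K} (hv : En (YY (wU g hg) (wU_pow hg)) v = v) :
    ∃ A0 A1 : Mt K, A0.trace = 0 ∧ A1.trace = 0 ∧ iota g (A0, A1) = v :=
  supp_iota_surj (g_ne hg) (supp_of_fix (wU_pow hg) (wU_ne hg) hv)

variable (f : ZMod 3 →+* K)

theorem En_emb (x : ↥(chevE8.group (ZMod 3))) (v : chevE8.Idx → ZMod 3) :
    En (emb hE8 f x) (fun i => f (v i)) =
      fun i => f (((((x : GL chevE8.Idx (ZMod 3)) : Matrix chevE8.Idx chevE8.Idx (ZMod 3)) *ᵥ v) i)) := by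
  rw [En_apply, emb_val]
  funext i
  rw [Matrix.mulVec, Matrix.mulVec, dotProduct, dotProduct, map_sum]
  exact Finset.sum_congr rfl fun j _ => by rw [Matrix.map_apply, map_mul]

theorem f_inj {v w : chevE8.Idx → ZMod 3} (h : (fun i => f (v i)) = fun i => f (w i)) : v = w := by
  funext i
  exact f.injective (congrFun h i)

theorem En_conj (z a : ↥(chevE8.group K)) (w : chevE8.Idx → K) : En (z⁻¹ * a * z) w = En z⁻¹ (En a (En z w)) := by
  rw [map_mul, map_mul, Module.End.mul_apply, Module.End.mul_apply]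

theorem En_zz (z : ↥(chevE8.group K)) (w : chevE8.Idx → K) : En z (En z⁻¹ w) = w := by
  rw [← Module.End.mul_apply, ← map_mul, mul_inv_cancel, map_one, Module.End.one_apply]

theorem En_zz' (z : ↥(chevE8.group K)) (w : chevE8.Idx → K) : En z⁻¹ (En z w) = w := by
  rw [← Module.End.mul_apply, ← map_mul, inv_mul_cancel, map_one, Module.End.one_apply]

/-- rational fixed vectors of `y` are in the image of `iota` after conjugation -/
theorem down_iota {g : K} (hg : g ^ 4 = 1 - g) {z : ↥(chevE8.group K)} {y : ↥(chevE8.group (ZMod 3))}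
    (hy : z⁻¹ * emb hE8 f y * z = YY (wU g hg) (wU_pow hg)) {v : chevE8.Idx → ZMod 3}
    (hv : ((y : GL chevE8.Idx (ZMod 3)) : Matrix chevE8.Idx chevE8.Idx (ZMod 3)) *ᵥ v = v) :
    ∃ A0 A1 : Mt K, A0.trace = 0 ∧ A1.trace = 0 ∧ iota g (A0, A1) = En z⁻¹ (fun i => f (v i)) := by
  apply fix_iota hg
  rw [← hy, En_conj, En_zz, En_emb, hv]

/-- the same action on the image of `iota` gives the same action on the rational fixed vectors of `y` -/
theorem sameU_of {g : K} (hg : g ^ 4 = 1 - g) {z : ↥(chevE8.group K)} {y t t' : ↥(chevE8.group (ZMod 3))}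
    (hy : z⁻¹ * emb hE8 f y * z = YY (wU g hg) (wU_pow hg))
    (h : ∀ A0 A1 : Mt K, A0.trace = 0 → A1.trace = 0 →
      (((z⁻¹ * emb hE8 f t * z : ↥(chevE8.group K)) : GL chevE8.Idx K) : Matrix chevE8.Idx chevE8.Idx K) *ᵥ iota g (A0, A1) =
      (((z⁻¹ * emb hE8 f t' * z : ↥(chevE8.group K)) : GL chevE8.Idx K) : Matrix chevE8.Idx chevE8.Idx K) *ᵥ iota g (A0, A1))
    (v : chevE8.Idx → ZMod 3)
    (hv : ((y : GL chevE8.Idx (ZMod 3)) : Matrix chevE8.Idx chevE8.Idx (ZMod 3)) *ᵥ v = v) :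
    ((t : GL chevE8.Idx (ZMod 3)) : Matrix chevE8.Idx chevE8.Idx (ZMod 3)) *ᵥ v =
      ((t' : GL chevE8.Idx (ZMod 3)) : Matrix chevE8.Idx chevE8.Idx (ZMod 3)) *ᵥ v := by
  obtain ⟨A0, A1, t0, t1, e⟩ := down_iota f hg hy hv
  have h1 : En (z⁻¹ * emb hE8 f t * z) (iota g (A0, A1)) = En (z⁻¹ * emb hE8 f t' * z) (iota g (A0, A1)) := h A0 A1 t0 t1
  rw [e, En_conj, En_conj, En_zz, En_emb, En_emb] at h1
  have h2 := congrArg (En z) h1
  rw [En_zz, En_zz] at h2
  exact f_inj f h2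

end

end Cfsg.Agent.H576.E8L
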