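import Cfsg.Agent.H576.E8L.Fr
import Cfsg.Agent.H576.E8L.T4

/-!
# S5925, box G: root columns of `pr_u ∘ ph2 (X5)` by strings (helper576)
-/

set_option autoImplicit false
set_option linter.unusedSectionVars false
set_option linter.unusedVariables false
set_option linter.style.longLine false
set_option linter.unusedSimpArgs false

namespace Cfsg.Agent.H576.E8L

open Matrix Cfsg Cfsg.Lie Cfsg.Agent.ChevalleyStructure Cfsg.Agent.ChevalleyStructure.Elts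
open Cfsg.Agent.H992.E8X Cfsg.Agent.H238.E8
open Cfsg.Agent.ChevalleyStructure.SparseEng (bvec act evalAct xMat_mulVec)

/-! ### powers of `g` by table -/

def gtab : List T4 := [⟨1, 0, 0, 0⟩, ⟨0, 1, 0, 0⟩, ⟨0, 0, 1, 0⟩, ⟨0, 0, 0, 1⟩, ⟨1, 2, 0, 0⟩, ⟨0, 1, 2, 0⟩, ⟨0, 0, 1, 2⟩, ⟨2, 1, 0, 1⟩, ⟨1, 1, 1, 0⟩, ⟨0, 1, 1, 1⟩, ⟨1, 2, 1, 1⟩, ⟨1, 0, 2, 1⟩, ⟨1, 0, 0, 2⟩, ⟨2, 2, 0, 0⟩, ⟨0, 2, 2, 0⟩, ⟨0, 0, 2, 2⟩, ⟨2, 1, 0, 2⟩, ⟨2, 0, 1, 0⟩, ⟨0, 2, 0, 1⟩, ⟨1, 2, 2, 0⟩, ⟨0, 1, 2, 2⟩, ⟨2, 1, 1, 2⟩, ⟨2, 0, 1, 1⟩, ⟨1, 1, 0, 1⟩, ⟨1, 0, 1, 0⟩, ⟨0, 1, 0, 1⟩, ⟨1, 2, 1, 0⟩, ⟨0, 1, 2, 1⟩, ⟨1, 2, 1, 2⟩, ⟨2, 2, 2, 1⟩, ⟨1, 1, 2, 2⟩, ⟨2, 2, 1, 2⟩, ⟨2, 0, 2, 1⟩, ⟨1, 1, 0, 2⟩, ⟨2, 2, 1, 0⟩, ⟨0, 2, 2, 1⟩, ⟨1, 2, 2, 2⟩, ⟨2, 2, 2, 2⟩, ⟨2, 0, 2, 2⟩, ⟨2, 0, 0, 2⟩, ⟨2, 0, 0, 0⟩, ⟨0, 2, 0, 0⟩, ⟨0, 0, 2, 0⟩, ⟨0, 0, 0, 2⟩, ⟨2, 1, 0, 0⟩, ⟨0, 2, 1, 0⟩, ⟨0, 0, 2, 1⟩, ⟨1, 2, 0, 2⟩, ⟨2, 2, 2,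 0⟩, ⟨0, 2, 2, 2⟩, ⟨2, 1, 2, 2⟩, ⟨2, 0, 1, 2⟩, ⟨2, 0, 0, 1⟩, ⟨1, 1, 0, 0⟩, ⟨0, 1, 1, 0⟩, ⟨0, 0, 1, 1⟩, ⟨1, 2, 0, 1⟩, ⟨1, 0, 2, 0⟩, ⟨0, 1, 0, 2⟩, ⟨2, 1, 1, 0⟩, ⟨0, 2, 1, 1⟩, ⟨1, 2, 2, 1⟩, ⟨1, 0, 2, 2⟩, ⟨2, 2, 0, 2⟩, ⟨2, 0, 2, 0⟩, ⟨0, 2, 0, 2⟩, ⟨2, 1, 2, 0⟩, ⟨0, 2, 1, 2⟩, ⟨2, 1, 2, 1⟩, ⟨1, 1, 1, 2⟩, ⟨2, 2, 1, 1⟩, ⟨1, 1, 2, 1⟩, ⟨1, 0, 1, 2⟩, ⟨2, 2, 0, 1⟩, ⟨1, 1, 2, 0⟩, ⟨0, 1, 1, 2⟩, ⟨2, 1, 1, 1⟩, ⟨1, 1, 1, 1⟩, ⟨1, 0, 1, 1⟩, ⟨1, 0, 0, 1⟩]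

/-- `g ^ n` -/
def gq (n : ℕ) : T4 := gtab.getD (n % 80) T4.zero

theorem gtab_ok : ∀ n : Fin 80, gtab.getD n.val T4.zero = T4.gp n.val := by decide +kernel
theorem gp80 : T4.gp 80 = T4.one := by decide +kernel

section gen
variable {K : Type*} [Field K] {g : K}

theorem ev_gq (hg : g ^ 4 = 1 - g) (h3 : (3 : K) = 0) (n : ℕ) : T4.ev g (gq n) = g ^ n := by
  have h80 : g ^ 80 = 1 := by rw [← T4.ev_gp hg h3, gp80, T4.ev_one]
  unfold gq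
  have := gtab_ok ⟨n % 80, Nat.mod_lt _ (by norm_num)⟩
  simp only at this
  rw [this, T4.ev_gp hg h3]
  conv_rhs => rw [← Nat.div_add_mod n 80]
  rw [pow_add, pow_mul, h80, one_pow, one_mul]

/-- the five indices -/
def L5 : List (Fin 5) := [0, 1, 2, 3, 4]

/-- sum over `Fin 5` -/
def s5 (f : Fin 5 → T4) : T4 := T4.sum (L5.map f)

theorem ev_s5 (h3 : (3 : K) = 0) (f : Fin 5 → T4) : T4.ev g (s5 f) = ∑ i, T4.ev g (f i) := by
  unfold s5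
  rw [T4.ev_sum h3, Fin.sum_univ_five]
  simp only [L5, List.map_cons, List.map_nil, List.sum_cons, List.sum_nil, add_zero]
  ring

/-- coefficient of `e_u` in the image of position `k` of the string `v` -/
def cV (x : Fin 5 → Fin 5 → T4) (v : List (ℤ × ℕ)) (k : Fin 5) (u : ℕ) : T4 :=
  s5 fun l => if (g1 v l).2 = u then T4.sm ((g1 v k).1 * (g1 v l).1) (x l k) else T4.zero

def cL (x : Fin 5 → Fin 5 → T4) (v : List (List (ℤ × ℕ))) (p q : Fin 5) (u : ℕ) : T4 :=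
  s5 fun l => s5 fun m => if (g2 v l m).2 = u then T4.sm ((g2 v p q).1 * (g2 v l m).1) (T4.mul (x l p) (x m q)) else T4.zero

theorem rv_of_tm {p : ℤ × ℕ} (h : p.1 * p.1 = 1) : rv K p.2 = (p.1 : K) • tm K p := by
  unfold tm
  rw [smul_smul]
  have : (p.1 : K) * (p.1 : K) = 1 := by exact_mod_cast congrArg (Int.cast (R := K)) h
  rw [this, one_smul]

theorem tm_inr (p : ℤ × ℕ) (u : Fin chevE8.nroots) : tm K p (Sum.inr u) = if p.2 = u.val then (p.1 : K) else 0 := by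
  unfold tm
  rw [Pi.smul_apply, rv_inr, smul_eq_mul]
  by_cases h : u.val = p.2
  · rw [if_pos h, if_pos h.symm, mul_one]
  · rw [if_neg h, if_neg (fun e => h e.symm), mul_zero]

theorem col_gen {G : ↥(chevE8.group K)} {v : List (ℤ × ℕ)} {x : Fin 5 → Fin 5 → T4} {c : Fin 5 → Fin 5 → K} (h3 : (3 : K) = 0)
    {k : Fin 5} (h1 : (g1 v k).1 * (g1 v k).1 = 1)
    (hG : mv G (tm K (g1 v k)) = ∑ l, (c l k) • tm K (g1 v l)) (hc : ∀ l k, c l k = T4.ev g (x l k))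
    (u : Fin chevE8.nroots) : mv G (rv K (g1 v k).2) (Sum.inr u) = T4.ev g (cV x v k u.val) := by
  rw [rv_of_tm h1, mv_smul, hG, Pi.smul_apply, Finset.sum_apply, cV, ev_s5 h3, smul_eq_mul, Finset.mul_sum]
  refine Finset.sum_congr rfl fun l _ => ?_
  rw [Pi.smul_apply, tm_inr, smul_eq_mul]
  by_cases h : (g1 v l).2 = u.val
  · rw [if_pos h, if_pos h, T4.ev_sm h3, hc]
    push_cast
    ring
  · rw [if_neg h, if_neg h, T4.ev_zero, mul_zero, mul_zero]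

theorem col2_gen {G : ↥(chevE8.group K)} {v : List (List (ℤ × ℕ))} {x : Fin 5 → Fin 5 → T4} {c : Fin 5 → Fin 5 → K}
    (hg : g ^ 4 = 1 - g) (h3 : (3 : K) = 0)
    {p q : Fin 5} (h1 : (g2 v p q).1 * (g2 v p q).1 = 1)
    (hG : mv G (tm K (g2 v p q)) = ∑ l, ∑ m, (c l p * c m q) • tm K (g2 v l m)) (hc : ∀ l k, c l k = T4.ev g (x l k))
    (u : Fin chevE8.nroots) : mv G (rv K (g2 v p q).2) (Sum.inr u) = T4.ev g (cL x v p q u.val) := by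
  rw [rv_of_tm h1, mv_smul, hG, Pi.smul_apply, Finset.sum_apply, cL, ev_s5 h3, smul_eq_mul, Finset.mul_sum]
  refine Finset.sum_congr rfl fun l _ => ?_
  rw [Finset.sum_apply, ev_s5 h3, Finset.mul_sum]
  refine Finset.sum_congr rfl fun m _ => ?_
  rw [Pi.smul_apply, tm_inr, smul_eq_mul]
  by_cases h : (g2 v l m).2 = u.val
  · rw [if_pos h, if_pos h, T4.ev_sm h3, T4.ev_mul hg h3, hc, hc]
    push_cast
    ring
  · rw [if_neg h, if_neg h, T4.ev_zero, mul_zero, mul_zero]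

/-! ### `Λ² V*` -/

/-- `A ↦ (A⁻¹)ᵀ` -/
def tht : SpecialLinearGroup (Fin 5) K →* SpecialLinearGroup (Fin 5) K where
  toFun A := ⟨(A⁻¹).1ᵀ, by rw [Matrix.det_transpose]; exact (A⁻¹).2⟩
  map_one' := by
    apply Subtype.ext
    show ((1 : SpecialLinearGroup (Fin 5) K)⁻¹).1ᵀ = 1
    rw [inv_one]
    exact Matrix.transpose_one
  map_mul' A B := by
    apply Subtype.ext
    show ((A * B)⁻¹).1ᵀ = (A⁻¹).1ᵀ * (B⁻¹).1ᵀ
    rw [_root_.mul_inv_rev, ← Matrix.transpose_mul]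
    rfl

theorem tht_val (A : SpecialLinearGroup (Fin 5) K) (a b : Fin 5) : (tht A).1 a b = (A⁻¹).1 b a := rfl

theorem tht_tht (A : SpecialLinearGroup (Fin 5) K) : tht (tht A) = A := by
  have h : (tht A)⁻¹ = tht (A⁻¹) := (map_inv tht A).symm
  apply Subtype.ext
  show ((tht A)⁻¹).1ᵀ = A.1
  rw [h]
  show ((A⁻¹⁻¹).1ᵀ)ᵀ = A.1
  rw [Matrix.transpose_transpose, inv_inv]

theorem tht_tv {i j : Fin 5} (hij : i ≠ j) (c : K) :
    tht (SpecialLinearGroup.transvection hij c) = SpecialLinearGroup.transvection hij.symm (-c) := by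
  apply Subtype.ext
  show ((SpecialLinearGroup.transvection hij c)⁻¹).1ᵀ = Matrix.transvection j i (-c)
  rw [tv_inv]
  show (Matrix.transvection i j (-c))ᵀ = Matrix.transvection j i (-c)
  ext a b
  simp only [Matrix.transvection, Matrix.transpose_apply, Matrix.add_apply, Matrix.one_apply, Matrix.single_apply]
  congr 1
  · simp only [eq_comm]
  · simp only [and_comm]

/-- swapped table -/
def rtS (rt : Fin 5 → Fin 5 → ℕ) : Fin 5 → Fin 5 → ℕ := fun i j => rt j i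
def sgS (sg : Fin 5 → Fin 5 → ℤ) : Fin 5 → Fin 5 → ℤ := fun i j => -sg j i

theorem use_Ld {rt : Fin 5 → Fin 5 → ℕ} {sg : Fin 5 → Fin 5 → ℤ} {φ : SpecialLinearGroup (Fin 5) K →* ↥(chevE8.group K)}
    (hφ : ∀ (i j : Fin 5) (hij : i ≠ j) (c : K),
      φ (SpecialLinearGroup.transvection hij c) = X (rt i j) ((sg i j : K) * c))
    {v : List (List (ℤ × ℕ))} (hv : chkL (rtS rt) (sgS sg) v = true) (A : SpecialLinearGroup (Fin 5) K) (p q : Fin 5) :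
    mv (φ A) (tm K (g2 v p q)) = ∑ l, ∑ m, ((A⁻¹).1 p l * (A⁻¹).1 q m) • tm K (g2 v l m) := by
  have h := use_L (φ := φ.comp tht) (rt := rtS rt) (sg := sgS sg) (fun i j hij c => by
    show φ (tht (SpecialLinearGroup.transvection hij c)) = _
    rw [tht_tv, hφ]
    congr 1
    unfold sgS
    push_cast
    ring) hv (tht A) p q
  have e : (φ.comp tht) (tht A) = φ A := congrArg φ (tht_tht A)
  rw [e] at h
  exact h

theorem st2Ld_ok' : (st2Ld.all fun v => chkL (rtS rt2) (sgS sg2) v) = true := by decide +kernel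

/-! ### columns -/

/-- the coefficient of `e_u` in the image under `ph2 A` of the root vector at a location -/
def cT (x y : Fin 5 → Fin 5 → T4) (t : ℕ × ℕ × Fin 5 × Fin 5) (u : ℕ) : T4 :=
  match t.1 with
  | 0 => cV x (st2V.getD t.2.1 []) t.2.2.1 u
  | 1 => cV (fun l k => y k l) (st2Vd.getD t.2.1 []) t.2.2.1 u
  | 2 => cL x (st2L.getD t.2.1 []) t.2.2.1 t.2.2.2 u
  | _ => cL (fun l k => y k l) (st2Ld.getD t.2.1 []) t.2.2.1 t.2.2.2 u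

/-- the root at a location -/
def src (t : ℕ × ℕ × Fin 5 × Fin 5) : ℕ :=
  match t.1 with
  | 0 => (g1 (st2V.getD t.2.1 []) t.2.2.1).2
  | 1 => (g1 (st2Vd.getD t.2.1 []) t.2.2.1).2
  | 2 => (g2 (st2L.getD t.2.1 []) t.2.2.1 t.2.2.2).2
  | _ => (g2 (st2Ld.getD t.2.1 []) t.2.2.1 t.2.2.2).2

/-- validity of a location -/
def val (t : ℕ × ℕ × Fin 5 × Fin 5) : Bool :=
  match t.1 with
  | 0 => decide (t.2.1 < 10)
  | 1 => decide (t.2.1 < 10)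
  | 2 => decide (t.2.1 < 5) && decide (t.2.2.1 ≠ t.2.2.2)
  | _ => decide (t.2.1 < 5) && decide (t.2.2.1 ≠ t.2.2.2)

theorem all_getD {α : Type*} {l : List α} {f : α → Bool} {d : α} (h : l.all f = true) {n : ℕ} (hn : n < l.length) :
    f (l.getD n d) = true := by
  rw [List.getD_eq_getElem _ _ hn]
  exact List.all_eq_true.1 h _ (List.getElem_mem hn)

theorem col (hg : g ^ 4 = 1 - g) (h3 : (3 : K) = 0) {A : SpecialLinearGroup (Fin 5) K} {x y : Fin 5 → Fin 5 → T4}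
    (hx : ∀ a b, A.1 a b = T4.ev g (x a b)) (hy : ∀ a b, (A⁻¹).1 a b = T4.ev g (y a b))
    {t : ℕ × ℕ × Fin 5 × Fin 5} (ht : val t = true) (u : Fin chevE8.nroots) :
    mv (ph2 K A) (rv K (src t)) (Sum.inr u) = T4.ev g (cT x y t u.val) := by
  have hφ : ∀ (i j : Fin 5) (hij : i ≠ j) (c : K),
      ph2 K (SpecialLinearGroup.transvection hij c) = X (rt2 i j) ((sg2 i j : K) * c) := fun i j hij c => ph2_tv K hij c
  obtain ⟨ty, ix, p, q⟩ := t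
  rcases ty with _ | _ | _ | ty
  · have hn : ix < 10 := of_decide_eq_true ht
    have hv := all_getD (d := []) st2V_ok (n := ix) (by exact hn)
    have h1 : (g1 (st2V.getD ix []) p).1 * (g1 (st2V.getD ix []) p).1 = 1 := by
      have := hv
      unfold chkV at this
      rw [Bool.and_eq_true] at this
      exact of_decide_eq_true this.1 p
    exact col_gen h3 h1 (c := fun l k => A.1 l k) (use_V hφ hv A p) hx u
  · have hn : ix < 10 := of_decide_eq_true ht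
    have hv := all_getD (d := []) st2Vd_ok (n := ix) (by exact hn)
    have h1 : (g1 (st2Vd.getD ix []) p).1 * (g1 (st2Vd.getD ix []) p).1 = 1 := by
      have := hv
      unfold chkVd at this
      rw [Bool.and_eq_true] at this
      exact of_decide_eq_true this.1 p
    exact col_gen h3 h1 (c := fun l k => (A⁻¹).1 k l) (use_Vd hφ hv A p) (fun l k => hy k l) u
  · have ht' : (decide (ix < 5) && decide (p ≠ q)) = true := ht
    rw [Bool.and_eq_true] at ht'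
    have hn : ix < 5 := of_decide_eq_true ht'.1
    have hpq : p ≠ q := of_decide_eq_true ht'.2
    have hv := all_getD (d := []) st2L_ok (n := ix) (by exact hn)
    have h1 : (g2 (st2L.getD ix []) p q).1 * (g2 (st2L.getD ix []) p q).1 = 1 := by
      have := hv
      unfold chkL at this
      rw [Bool.and_eq_true] at this
      have h2 := of_decide_eq_true this.1 p q
      rw [if_neg hpq] at h2
      exact h2.1
    exact col2_gen hg h3 h1 (c := fun l k => A.1 l k) (use_L hφ hv A p q) hx u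
  · have ht' : (decide (ix < 5) && decide (p ≠ q)) = true := ht
    rw [Bool.and_eq_true] at ht'
    have hn : ix < 5 := of_decide_eq_true ht'.1
    have hpq : p ≠ q := of_decide_eq_true ht'.2
    have hv := all_getD (d := []) st2Ld_ok' (n := ix) (by exact hn)
    have h1 : (g2 (st2Ld.getD ix []) p q).1 * (g2 (st2Ld.getD ix []) p q).1 = 1 := by
      have := hv
      unfold chkL at this
      rw [Bool.and_eq_true] at this
      have h2 := of_decide_eq_true this.1 p q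
      rw [if_neg hpq] at h2
      exact h2.1
    exact col2_gen hg h3 h1 (c := fun l k => (A⁻¹).1 k l) (use_Ld hφ hv A p q) (fun l k => hy k l) u

end gen

/-! ### the tables -/

/-- locations of the roots of `W0` -/
def loc0 : Fin 5 → Fin 5 → ℕ × ℕ × Fin 5 × Fin 5 := ![![(0, 0, 0, 0), (3, 0, 1, 3), (0, 2, 0, 0), (1, 1, 3, 0), (2, 2, 0, 2)], ![(2, 4, 1, 3), (0, 0, 0, 0), (3, 3, 2, 4), (0, 4, 1, 0), (1, 8, 4, 0)], ![(1, 7, 0, 0), (2, 1, 2, 4), (0, 0, 0, 0), (3, 1, 0, 3), (0, 7, 2, 0)], ![(0, 8, 3, 0), (1, 5, 1, 0), (2, 3, 0, 3), (0, 0, 0, 0), (3, 4, 1, 4)], ![(3, 2, 0, 2), (0, 1, 4, 0), (1, 2, 2, 0), (2, 0, 1, 4), (0, 0, 0, 0)]]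
/-- locations of the roots of `W1` -/
def loc1 : Fin 5 → Fin 5 → ℕ × ℕ × Fin 5 × Fin 5 := ![![(0, 0, 0, 0), (0, 3, 0, 0), (2, 1, 0, 1), (3, 2, 3, 4), (1, 0, 4, 0)], ![(1, 6, 0, 0), (0, 0, 0, 0), (0, 6, 1, 0), (2, 3, 1, 2), (3, 0, 0, 4)], ![(3, 3, 0, 1), (1, 3, 1, 0), (0, 0, 0, 0), (0, 5, 2, 0), (2, 0, 2, 3)], ![(2, 2, 3, 4), (3, 1, 1, 2), (1, 4, 2, 0), (0, 0, 0, 0), (0, 0, 3, 0)], ![(0, 9, 4, 0), (2, 4, 0, 4), (3, 4, 2, 3), (1, 9, 3, 0), (0, 0, 0, 0)]]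

theorem loc0_ok : ∀ a b : Fin 5, a ≠ b → val (loc0 a b) = true ∧ src (loc0 a b) = w0 a b := by decide +kernel
theorem loc1_ok : ∀ a b : Fin 5, a ≠ b → val (loc1 a b) = true ∧ src (loc1 a b) = w1 a b := by decide +kernel

/-- logarithms of the entries of `X5` -/
def eX : Fin 5 → Fin 5 → ℕ := ![![0, 48, 16, 64, 32], ![22, 0, 57, 39, 53], ![34, 13, 0, 71, 19], ![66, 11, 79, 0, 37], ![38, 77, 31, 33, 0]]
/-- logarithms of the entries of `X5⁻¹` (zero diagonal) -/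
def eXi : Fin 5 → Fin 5 → ℕ := ![![0, 4, 28, 12, 36], ![26, 0, 13, 51, 1], ![62, 17, 0, 27, 31], ![78, 39, 3, 0, 73], ![74, 9, 59, 37, 0]]

/-- `X5` -/
def xT (a b : Fin 5) : T4 := gq (eX a b)
/-- `X5⁻¹` -/
def yT (a b : Fin 5) : T4 := if a = b then T4.zero else gq (eXi a b)

theorem xy_one : ∀ a b : Fin 5, s5 (fun c => T4.mul (xT a c) (yT c b)) = if a = b then T4.one else T4.zero := by
  decide +kernel

end Cfsg.Agent.H576.E8L
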