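import Cfsg.Agent.H576.E8L.Root

/-!
# S5925, box G: kernel checks of the 48 columns (helper576)
-/

set_option autoImplicit false
set_option linter.unusedSectionVars false
set_option linter.unusedVariables false
set_option linter.style.longLine false
set_option linter.unusedSimpArgs false

namespace Cfsg.Agent.H576.E8L

open Cfsg Cfsg.Lie Cfsg.Agent.ChevalleyStructure Cfsg.Agent.H238.E8 T4

/-! ### the maps of helper879 on tuples -/

def c1e : Fin 5 → ℕ := ![16, 24, 48, 60, 72]
def c4e : Fin 5 → ℕ := ![8, 64, 56, 32, 20]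
def d3e : Fin 5 → ℕ := ![48, 24, 16, 72, 60]
def d2e : Fin 5 → ℕ := ![64, 8, 20, 32, 56]
def k00T : Fin 5 → T4 := ![zero, gq 63, gq 26, gq 74, gq 7]
def k01T : Fin 5 → T4 := ![gq 7, gq 63, gq 69, zero, gq 61]
def k10T : Fin 5 → T4 := ![gq 63, gq 69, zero, gq 61, gq 7]
def k11T : Fin 5 → T4 := ![zero, gq 78, gq 21, gq 29, gq 62]
def m00T : Fin 5 → T4 := ![zero, gq 7, gq 74, gq 26, gq 63]
def m01T : Fin 5 → T4 := ![gq 63, gq 7, gq 61, zero, gq 69]
def m10T : Fin 5 → T4 := ![gq 7, gq 61, zero, gq 69, gq 63]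
def m11T : Fin 5 → T4 := ![zero, gq 62, gq 29, gq 21, gq 78]

abbrev MT := Fin 5 → Fin 5 → T4

def cr5T (k : Fin 5 → T4) (A : MT) (a : Fin 5) : T4 := s5 fun c => mul (k (a - c)) (A c c)

def XP0T (A B : MT) : MT := fun a b =>
  if b = a then add (cr5T k00T A a) (cr5T k01T B a)
  else if b = a + 1 then add (mul (gq 50) (A a b)) (mul (gq (c1e a)) (B (a + 1) (a + 4)))
  else if b = a + 2 then A a b
  else if b = a + 3 then zero
  else add (mul (gq 70) (A a b)) (mul (gq (c4e a)) (B (a + 3) a))

def XP1T (A B : MT) : MT := fun a b =>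
  if b = a then add (cr5T k10T A a) (cr5T k11T B a)
  else if b = a + 1 then B a b
  else if b = a + 2 then add (mul (gq 50) (B a b)) (mul (gq (d2e a)) (A (a + 2) (a + 1)))
  else if b = a + 3 then add (mul (gq 70) (B a b)) (mul (gq (d3e a)) (A (a + 4) a))
  else zero

def XM0T (A B : MT) : MT := fun a b =>
  if b = a then add (cr5T m00T A a) (cr5T m01T B a)
  else if b = a + 1 then add (mul (gq 70) (A a b)) (sm (-1) (mul (gq (c1e a)) (B (a + 1) (a + 4))))
  else if b = a + 2 then zero
  else if b = a + 3 then A a b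
  else add (mul (gq 50) (A a b)) (sm (-1) (mul (gq (c4e a)) (B (a + 3) a)))

def XM1T (A B : MT) : MT := fun a b =>
  if b = a then add (cr5T m10T A a) (cr5T m11T B a)
  else if b = a + 1 then zero
  else if b = a + 2 then add (mul (gq 70) (B a b)) (sm (-1) (mul (gq (d2e a)) (A (a + 2) (a + 1))))
  else if b = a + 3 then add (mul (gq 50) (B a b)) (sm (-1) (mul (gq (d3e a)) (A (a + 4) a)))
  else B a b

/-! ### indexing by the factor -/

def wt (t : Bool) : Fin 5 → Fin 5 → ℕ := bif t then w1 else w0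
def st (t : Bool) : Fin 5 → Fin 5 → ℤ := bif t then s1 else s0
def ret (t : Bool) : Fin 5 → ℕ := bif t then re1 else re0
def loct (t : Bool) : Fin 5 → Fin 5 → ℕ × ℕ × Fin 5 × Fin 5 := bif t then loc1 else loc0

/-- source matrix `E_ab` in the component `t` -/
def eT (t : Bool) (a b : Fin 5) (t' : Bool) : MT := fun i j => if t = t' ∧ i = a ∧ j = b then one else zero

/-- the source matrix `E_bb - E_(b+1)(b+1)` in the component `t` -/
def hT (t : Bool) (b : Fin 4) (t' : Bool) : MT := fun i j =>
  if t = t' ∧ i = b.castSucc ∧ j = b.castSucc then one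
  else if t = t' ∧ i = b.succ ∧ j = b.succ then sm (-1) one else zero

/-- the check of a root column -/
def chkR (x y : MT) (P : Bool → MT → MT → MT) (t : Bool) (a b : Fin 5) : Bool :=
  decide (∀ t' : Bool, ∀ i j : Fin 5, if i = j then P t' (eT t a b false) (eT t a b true) i j = zero else
    sm (st t a b) (mul (gq (ret t a + ret t' j)) (cT x y (loct t a b) (wt t' i j))) =
      sm (st t' i j) (mul (gq (ret t' i + ret t b)) (P t' (eT t a b false) (eT t a b true) i j)))

def PX (t : Bool) : MT → MT → MT := bif t then XP1T else XP0T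
def PY (t : Bool) : MT → MT → MT := bif t then XM1T else XM0T

theorem chkR_X0 : ∀ a b : Fin 5, a ≠ b → chkR xT yT PX false a b = true := by decide +kernel
theorem chkR_X1 : ∀ a b : Fin 5, a ≠ b → chkR xT yT PX true a b = true := by decide +kernel
theorem chkR_Y0 : ∀ a b : Fin 5, a ≠ b → chkR yT xT PY false a b = true := by decide +kernel
theorem chkR_Y1 : ∀ a b : Fin 5, a ≠ b → chkR yT xT PY true a b = true := by decide +kernel

end Cfsg.Agent.H576.E8L
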